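import Cfsg.Agent.Mrg.Omega.VP

/-!
# A root group with a `T`-invariant centre in a minimal parabolic (#19331 (10), helper776)

`Abs X V T M` : the abstract situation of the FF theorem (`FFBr.Def`).  `Rt T A ν` : `1 ≠ A ≤ T`, `[V, a] = ν` for
all `1 ≠ a ∈ A`, `T` centralises `ν`, `V = ⟨ν^X⟩`.

* `not_sym` : `V` is not a sum of even-subset modules of `S_{2^m+1}`, `m ≥ 2`;
* `nat_trans` : if `V / C_V(O²(X))` is a sum of natural `SL₂(F)`-modules, then `A` is transitive on the `ν^x ≠ ν`;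
* `trans` : both together with the abstract FF theorem `AStmt`.
-/

set_option autoImplicit false
set_option linter.unusedSimpArgs false

namespace Cfsg.Agent.Omega.NO3b.Exit.TenFF

open Subgroup Cfsg.Agent.Lib.SL2Mat Cfsg.Agent.Omega.FFBr
open Cfsg.Agent.Omega.NatPair (ap ap_mul ap_one ap_inv_ap ap_zero' ap_one')

universe u

variable {X V : Type u} [Group X] [Group V] [MulDistribMulAction X V]

/-- `[V, a] = ν` for all `1 ≠ a ∈ A`, `T` centralises `ν`, `V = ⟨ν^X⟩` -/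
structure Rt (T A : Subgroup X) (ν : Subgroup V) : Prop where
  AT : A ≤ T
  fix : ∀ t ∈ T, ∀ v ∈ ν, t • v = v
  gen : ∀ W : Subgroup V, (∀ v ∈ ν, ∀ x : X, x • v ∈ W) → W = ⊤
  le : ∀ a ∈ A, ∀ v : V, a • v * v⁻¹ ∈ ν
  onto : ∀ a ∈ A, a ≠ 1 → ∀ w ∈ ν, ∃ v : V, a • v * v⁻¹ = w
  ne : ∃ a ∈ A, a ≠ 1

theorem odd_smul {v : V} (hv : v ∈ odd X V) (x : X) : x • v ∈ odd X V := by
  intro y hy
  have h1 := hv (x⁻¹ * y * x) (by
    have e : orderOf (x⁻¹ * y * x) = orderOf y := by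
      have := orderOf_injective (MulAut.conj x⁻¹).toMonoidHom (MulAut.conj x⁻¹).injective y
      simpa using this
    rwa [e])
  have e : y • x • v = x • ((x⁻¹ * y * x) • v) := by
    rw [smul_smul, smul_smul]; congr 1; group
  rw [e, h1]

/-! ### even-subset modules -/

section sym

variable {T : Sylow 2 X} {M : Subgroup X} {A : Subgroup X} {ν : Subgroup V} {k m : ℕ}

theorem sym_one (N : AbsSym (T : Subgroup X) V k m) : N.e 1 = 0 := by
  have := N.mul 1 1
  rw [mul_one] at this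
  exact left_eq_add.1 this

theorem sym_inv (N : AbsSym (T : Subgroup X) V k m) (v : V) : N.e v⁻¹ = - N.e v := by
  have := N.mul v v⁻¹
  rw [mul_inv_cancel, sym_one] at this
  exact (neg_eq_of_add_eq_zero_right this.symm).symm

theorem sym_br (N : AbsSym (T : Subgroup X) V k m) (v w : V) : N.e (v * w⁻¹) = N.e v - N.e w := by
  rw [N.mul, sym_inv, sub_eq_add_neg]

/-- the product of two elements -/
theorem acts_mul {n : ℕ} {e : V → Fin k → Fin n → ZMod 2} {g g' : X} {σ σ' : Equiv.Perm (Fin k)}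
    {τ τ' : Fin k → Equiv.Perm (Fin n)} (h : AActsSym e g σ τ) (h' : AActsSym e g' σ' τ') :
    AActsSym e (g * g') (σ * σ') fun i => τ (σ' i) * τ' i := by
  intro v i x
  rw [mul_smul, Equiv.Perm.mul_apply, Equiv.Perm.mul_apply, h, h']

theorem acts_inv {n : ℕ} {e : V → Fin k → Fin n → ZMod 2} {g : X} {σ : Equiv.Perm (Fin k)}
    {τ : Fin k → Equiv.Perm (Fin n)} (h : AActsSym e g σ τ) :
    AActsSym e g⁻¹ σ⁻¹ fun i => (τ (σ⁻¹ i))⁻¹ := by
  intro v i x
  have h1 := h (g⁻¹ • v) (σ⁻¹ i) ((τ (σ⁻¹ i))⁻¹ x)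
  rw [smul_inv_smul] at h1
  have e1 : σ (σ⁻¹ i) = i := σ.apply_symm_apply i
  have e2 : τ (σ⁻¹ i) ((τ (σ⁻¹ i))⁻¹ x) = x := (τ (σ⁻¹ i)).apply_symm_apply x
  rw [e1, e2] at h1
  exact h1.symm

/-- no element of `ν` outside `C_V(O²(X))`: impossible -/
theorem sym_exists (h : Rt (T : Subgroup X) A ν) (N : AbsSym (T : Subgroup X) V k m) (hk : 0 < k) :
    ∃ w ∈ ν, N.e w ≠ 0 := by
  by_contra hcon
  push Not at hcon
  have h1 : odd X V = ⊤ := h.gen _ fun v hv x => odd_smul ((N.ker v).1 (hcon v hv)) x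
  have hn : (0 : Fin (2 ^ m + 1)) ≠ Fin.last _ := by
    intro h2
    have := congrArg Fin.val h2
    simp only [Fin.val_zero, Fin.val_last] at this
    exact absurd this (show (0 : ℕ) < 2 ^ m by positivity).ne
  obtain ⟨v, hv⟩ := N.surj (fun _ => Pi.single 0 1 + Pi.single (Fin.last _) 1) (by
    intro i
    simp only [Pi.add_apply, Finset.sum_add_distrib, Finset.sum_pi_single']
    simp
    decide)
  have h2 : N.e v = 0 := (N.ker v).2 (by rw [h1]; trivial)
  have h3 := congrFun (congrFun (hv.symm.trans h2) ⟨0, hk⟩) 0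
  simp [hn] at h3

/-- **even-subset modules do not occur** -/
theorem not_sym (hA : Abs X V T M) (h : Rt (T : Subgroup X) A ν) (ho : AOff V A)
    (N : AbsSym (T : Subgroup X) V k m) (hk : 0 < k) (hm : 2 ≤ m) : False := by
  classical
  obtain ⟨w, hw, hw0⟩ := sym_exists h N hk
  obtain ⟨a, ha, ha1⟩ := h.ne
  -- the moved point
  obtain ⟨-, hoff⟩ := N.off A h.AT ho
  obtain ⟨τ, hτ, hτ2⟩ := hoff a ha
  obtain ⟨i, x, hx⟩ : ∃ i x, τ i x ≠ x := by
    by_contra hcon
    push Not at hcon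
    obtain ⟨v, rfl⟩ := h.onto a ha ha1 w hw
    apply hw0
    rw [sym_br]
    funext i x
    have := hτ v i x
    rw [Equiv.Perm.one_apply, hcon i x] at this
    rw [Pi.sub_apply, Pi.sub_apply, this, sub_self]
    rfl
  obtain ⟨hxx, b, hb, hbact⟩ := hτ2 i x hx
  set x' := τ i x with hx'
  -- the action of `b`
  have hbi : ∀ v : V, ∀ y, N.e (b • v) i (Equiv.swap x x' y) = N.e v i y := fun v y => by
    have := hbact v i y
    rwa [Function.update_self, Equiv.Perm.one_apply] at this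
  have hbj : ∀ v : V, ∀ j, j ≠ i → N.e (b • v) j = N.e v j := fun v j hj => by
    funext y
    have := hbact v j y
    rwa [Function.update_of_ne hj, Equiv.Perm.one_apply] at this
  have hb1 : b ≠ 1 := by
    rintro rfl
    obtain ⟨z, hz⟩ : ∃ z : Fin (2 ^ m + 1), z ≠ x ∧ z ≠ x' := by
      have hc : ({x, x'} : Finset (Fin (2 ^ m + 1))).card < Fintype.card (Fin (2 ^ m + 1)) := by
        refine (Finset.card_le_two).trans_lt ?_
        rw [Fintype.card_fin]
        have : 2 ^ 2 ≤ 2 ^ m := Nat.pow_le_pow_right (by norm_num) hm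
        omega
      obtain ⟨z, hz⟩ := Finset.exists_mem_notMem_of_card_lt_card (s := {x, x'}) (t := Finset.univ) hc
      refine ⟨z, ?_⟩
      simpa using hz
    obtain ⟨v, hv⟩ := N.surj (fun _ => Pi.single x 1 + Pi.single z 1) (by
      intro i
      simp only [Pi.add_apply, Finset.sum_add_distrib, Finset.sum_pi_single']
      simp
      decide)
    have h1 := hbi v x
    rw [one_smul, Equiv.swap_apply_left, hv] at h1
    simp [hx, hz.1, hz.2, Ne.symm hz.1, Ne.symm hz.2, Ne.symm hx] at h1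
  obtain ⟨v0, hv0⟩ := h.onto b hb hb1 w hw
  have hew : N.e w = N.e (b • v0) - N.e v0 := by rw [← hv0, sym_br]
  have hwj : ∀ j, j ≠ i → N.e w j = 0 := fun j hj => by
    rw [hew, Pi.sub_apply, hbj v0 j hj, sub_self]
  have hwy : ∀ y, y ≠ x → y ≠ x' → N.e w i y = 0 := fun y h1 h2 => by
    have := hbi v0 y
    rw [Equiv.swap_apply_of_ne_of_ne h1 h2] at this
    rw [hew, Pi.sub_apply, Pi.sub_apply, this, sub_self]
  have hwx : N.e w i x = N.e w i x' := by
    have h1 := hbi v0 x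
    have h2 := hbi v0 x'
    rw [Equiv.swap_apply_left] at h1
    rw [Equiv.swap_apply_right] at h2
    rw [hew, Pi.sub_apply, Pi.sub_apply, Pi.sub_apply, h1, h2]
    have : ∀ p q : ZMod 2, p - q = q - p := by decide
    exact this _ _
  have hwx1 : N.e w i x ≠ 0 := by
    intro h1
    apply hw0
    funext j y
    by_cases hj : j = i
    · subst hj
      by_cases hy : y = x
      · rw [hy, h1]; rfl
      by_cases hy' : y = x'
      · rw [hy', ← hwx, h1]; rfl
      exact hwy y hy hy'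
    · rw [hwj j hj]; rfl
  -- one block
  have hone : ∀ j, j = i := by
    intro j
    obtain ⟨t, ht, σ, τ', hact, hσ⟩ := N.trans i j
    have h1 := hact w i x
    rw [h.fix t ht w hw, hσ] at h1
    by_contra hj
    rw [hwj j hj] at h1
    exact hwx1 h1.symm
  -- the fixed point `0` is not `x`, `x'`
  have h0 := N.fix0 b (h.AT hb) 1 _ hbact i
  rw [Function.update_self] at h0
  have hx0 : x ≠ 0 := by
    intro h1
    rw [← h1, Equiv.swap_apply_left] at h0
    exact hx h0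
  have hx'0 : x' ≠ 0 := by
    intro h1
    rw [← h1, Equiv.swap_apply_right] at h0
    exact hx h0.symm
  -- a fourth point
  obtain ⟨z, hz0, hzx, hzx'⟩ : ∃ z : Fin (2 ^ m + 1), z ≠ 0 ∧ z ≠ x ∧ z ≠ x' := by
    have hc : ({0, x, x'} : Finset (Fin (2 ^ m + 1))).card < Fintype.card (Fin (2 ^ m + 1)) := by
      refine (Finset.card_le_three).trans_lt ?_
      rw [Fintype.card_fin]
      have : 2 ^ 2 ≤ 2 ^ m := Nat.pow_le_pow_right (by norm_num) hm
      omega
    obtain ⟨z, hz⟩ := Finset.exists_mem_notMem_of_card_lt_card (s := {0, x, x'}) (t := Finset.univ) hc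
    refine ⟨z, ?_⟩
    simpa using hz
  -- the stabiliser of `w`
  let K : Subgroup X :=
    { carrier := {g | g • w * w⁻¹ ∈ odd X V}
      one_mem' := by
        change (1 : X) • w * w⁻¹ ∈ odd X V
        rw [one_smul, mul_inv_cancel]; exact one_mem _
      mul_mem' := by
        intro g g' hg hg'
        change (g * g') • w * w⁻¹ ∈ odd X V
        have e : (g * g') • w * w⁻¹ = g • (g' • w * w⁻¹) * (g • w * w⁻¹) := by
          rw [smul_mul', smul_inv', mul_smul]; group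
        rw [e]
        exact mul_mem (odd_smul hg' g) hg
      inv_mem' := by
        intro g hg
        change g⁻¹ • w * w⁻¹ ∈ odd X V
        have e : g⁻¹ • w * w⁻¹ = (w * (g⁻¹ • w)⁻¹)⁻¹ := by group
        have e2 : w * (g⁻¹ • w)⁻¹ = g⁻¹ • (g • w * w⁻¹) := by
          rw [smul_mul', smul_inv', inv_smul_smul]
        rw [e, e2]
        exact inv_mem (odd_smul hg g⁻¹) }
  have hKT : (T : Subgroup X) ≤ K := fun t ht => by
    change t • w * w⁻¹ ∈ odd X V
    rw [h.fix t ht w hw, mul_inv_cancel]; exact one_mem _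
  have hKe : ∀ g : X, g ∈ K ↔ N.e (g • w) = N.e w := fun g => by
    change g • w * w⁻¹ ∈ odd X V ↔ _
    rw [← N.ker, sym_br, sub_eq_zero]
  -- the stabiliser of `0`
  let K' : Subgroup X :=
    { carrier := {g | ∃ σ τ, AActsSym N.e g σ τ ∧ ∀ i, τ i 0 = 0}
      one_mem' := ⟨1, fun _ => 1, fun v i x => by rw [one_smul]; rfl, fun i => rfl⟩
      mul_mem' := by
        rintro g g' ⟨σ, τ, h1, h2⟩ ⟨σ', τ', h1', h2'⟩
        exact ⟨_, _, acts_mul h1 h1', fun i => by rw [Equiv.Perm.mul_apply, h2', h2]⟩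
      inv_mem' := by
        rintro g ⟨σ, τ, h1, h2⟩
        refine ⟨_, _, acts_inv h1, fun i => ?_⟩
        rw [Equiv.Perm.inv_eq_iff_eq]
        exact (h2 _).symm }
  have hK'T : (T : Subgroup X) ≤ K' := fun t ht => by
    obtain ⟨σ, τ, h1⟩ := N.perm t
    exact ⟨σ, τ, h1, N.fix0 t ht σ τ h1⟩
  -- they are proper
  have hu : ∀ y z : Fin (2 ^ m + 1), ∃ g : X, AActsSym N.e g 1 fun _ => Equiv.swap y z := fun y z => by
    obtain ⟨g, hg, -⟩ := N.lift fun _ => Equiv.swap y z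
    exact ⟨g, hg⟩
  have hKne : K ≠ ⊤ := by
    intro h1
    obtain ⟨g, hg⟩ := hu 0 x
    have h2 := (hKe g).1 (by rw [h1]; trivial)
    have h3 := hg w i 0
    rw [Equiv.swap_apply_left, Equiv.Perm.one_apply, h2, hwy 0 hx0.symm hx'0.symm] at h3
    exact hwx1 h3
  have hK'ne : K' ≠ ⊤ := by
    intro h1
    obtain ⟨g, hg⟩ := hu 0 x
    obtain ⟨σ, τ', h2, h3⟩ : g ∈ K' := by rw [h1]; trivial
    obtain ⟨v, hv⟩ := N.surj (fun _ => Pi.single 0 1 + Pi.single z 1) (by
      intro i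
      simp only [Pi.add_apply, Finset.sum_add_distrib, Finset.sum_pi_single']
      simp
      decide)
    have h4 := hg v i x
    have h5 := h2 v i 0
    rw [h3, hone (σ i)] at h5
    rw [Equiv.swap_apply_right, Equiv.Perm.one_apply, h5, hv] at h4
    simp [hz0, hzx, Ne.symm hz0, Ne.symm hzx, hx0, Ne.symm hx0] at h4
  have hKM := (hA.max K hKT).resolve_right hKne
  have hK'M := (hA.max K' hK'T).resolve_right hK'ne
  -- `X = K' ∪ K' u K'`
  apply hA.Mne
  rw [eq_top_iff]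
  intro g _
  obtain ⟨σ, τ', hg⟩ := N.perm g
  by_cases hy : τ' i 0 = 0
  · refine hK'M ⟨σ, τ', hg, fun j => ?_⟩
    rw [hone j, hy]
  obtain ⟨u, hu'⟩ := hu 0 z
  obtain ⟨c, hc⟩ := hu (τ' i 0) z
  have huK : u ∈ M := by
    refine hKM ((hKe u).2 ?_)
    funext j y
    rw [hone j]
    have h1 := hu' w i (Equiv.swap 0 z y)
    rw [Equiv.swap_apply_self, Equiv.Perm.one_apply] at h1
    rw [h1]
    by_cases hy0 : y = 0
    · rw [hy0, Equiv.swap_apply_left, hwy z hzx hzx', hwy 0 hx0.symm hx'0.symm]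
    by_cases hyz : y = z
    · rw [hyz, Equiv.swap_apply_right, hwy z hzx hzx', hwy 0 hx0.symm hx'0.symm]
    rw [Equiv.swap_apply_of_ne_of_ne hy0 hyz]
  have hcM : c ∈ M := hK'M ⟨_, _, hc, fun j => Equiv.swap_apply_of_ne_of_ne (Ne.symm hy) hz0.symm⟩
  have h1 : u * (c * g) ∈ K' := by
    refine ⟨_, _, acts_mul hu' (acts_mul hc hg), fun j => ?_⟩
    rw [Equiv.Perm.mul_apply, Equiv.Perm.mul_apply, hone j, Equiv.swap_apply_left, Equiv.swap_apply_right]
  have h2 : g = c⁻¹ * (u⁻¹ * (u * (c * g))) := by group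
  rw [h2]
  exact mul_mem (inv_mem hcM) (mul_mem (inv_mem huK) (hK'M h1))

end sym

/-! ### natural modules -/

section nat

variable {T : Sylow 2 X} {M : Subgroup X} {A : Subgroup X} {ν : Subgroup V} {k : ℕ} {F : Type} [Field F]

theorem nat_one (N : AbsNat F (T : Subgroup X) V k) : N.e 1 = 0 := by
  have := N.mul 1 1
  rw [mul_one] at this
  exact left_eq_add.1 this

theorem nat_inv (N : AbsNat F (T : Subgroup X) V k) (v : V) : N.e v⁻¹ = - N.e v := by
  have := N.mul v v⁻¹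
  rw [mul_inv_cancel, nat_one] at this
  exact (neg_eq_of_add_eq_zero_right this.symm).symm

theorem nat_br (N : AbsNat F (T : Subgroup X) V k) (v w : V) : N.e (v * w⁻¹) = N.e v - N.e w := by
  rw [N.mul, nat_inv, sub_eq_add_neg]

theorem aacts_mul {e : V → Fin k → Fin 2 → F} {g h : X} {B C : Fin k → Matrix.SpecialLinearGroup (Fin 2) F}
    (hg : AActs e g B) (hh : AActs e h C) : AActs e (g * h) fun i => B i * C i :=
  ⟨fun v i => by rw [mul_smul, hg.1, hh.1, ap_mul], fun d hd => by rw [mul_smul, hh.2 d hd, hg.2 d hd]⟩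

theorem aacts_inv {e : V → Fin k → Fin 2 → F} {g : X} {B : Fin k → Matrix.SpecialLinearGroup (Fin 2) F}
    (hg : AActs e g B) : AActs e g⁻¹ fun i => (B i)⁻¹ := by
  refine ⟨fun v i => ?_, fun d hd => by rw [inv_smul_eq_iff, hg.2 d hd]⟩
  have h1 := hg.1 (g⁻¹ • v) i
  rw [smul_inv_smul] at h1
  rw [h1, ap_inv_ap]

theorem nat_exists (h : Rt (T : Subgroup X) A ν) (N : AbsNat F (T : Subgroup X) V k) (hk : 0 < k) :
    ∃ w ∈ ν, N.e w ≠ 0 := by
  by_contra hcon
  push Not at hcon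
  have h1 : odd X V = ⊤ := h.gen _ fun v hv x => odd_smul ((N.ker v).1 (hcon v hv)) x
  obtain ⟨v, hv⟩ := N.surj fun _ _ => 1
  have h2 : N.e v = 0 := (N.ker v).2 (by rw [h1]; trivial)
  have h3 := congrFun (congrFun (hv.symm.trans h2) ⟨0, hk⟩) 0
  exact one_ne_zero h3

/-- an element which acts as `1` is `1` -/
theorem nat_unique (hA : Abs X V T M) (N : AbsNat F (T : Subgroup X) V k) {h : X} (hh : AActs N.e h fun _ => 1) :
    h = 1 := by
  let K : Subgroup X :=
    { carrier := {h | (∀ v : V, h • v * v⁻¹ ∈ odd X V) ∧ ∀ d ∈ odd X V, h • d = d}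
      one_mem' := ⟨fun v => by rw [one_smul, mul_inv_cancel]; exact one_mem _, fun d _ => one_smul _ d⟩
      mul_mem' := by
        rintro a b ⟨ha, ha'⟩ ⟨hb, hb'⟩
        refine ⟨fun v => ?_, fun d hd => by rw [mul_smul, hb' d hd, ha' d hd]⟩
        have e : (a * b) • v * v⁻¹ = a • (b • v) * (b • v)⁻¹ * (b • v * v⁻¹) := by rw [mul_smul]; group
        rw [e]
        exact mul_mem (ha _) (hb v)
      inv_mem' := by
        rintro a ⟨ha, ha'⟩
        refine ⟨fun v => ?_, fun d hd => by rw [inv_smul_eq_iff, ha' d hd]⟩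
        have h1 := ha (a⁻¹ • v)
        rw [smul_inv_smul] at h1
        have e : a⁻¹ • v * v⁻¹ = (v * (a⁻¹ • v)⁻¹)⁻¹ := by group
        rw [e]
        exact inv_mem h1 }
  have hKn : K.Normal := by
    refine ⟨fun n hn g => ⟨fun v => ?_, fun d hd => ?_⟩⟩
    · have e : (g * n * g⁻¹) • v * v⁻¹ = g • (n • (g⁻¹ • v) * (g⁻¹ • v)⁻¹) := by
        rw [smul_mul', smul_inv', smul_inv_smul, mul_smul, mul_smul]
      rw [e]
      exact odd_smul (hn.1 _) g
    · rw [mul_smul, mul_smul, hn.2 _ (odd_smul hd g⁻¹), smul_inv_smul]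
  have hK2 : IsPGroup 2 K := by
    rintro ⟨n, hn⟩
    refine ⟨1, Subtype.ext ?_⟩
    change n ^ 2 ^ 1 = 1
    refine hA.faith _ fun v => ?_
    rw [pow_one, pow_two, mul_smul]
    have h1 := hn.1 v
    have h2 : n • v = n • v * v⁻¹ * v := by group
    rw [h2, smul_mul', hn.2 _ h1]
    have h3 : n • v * v⁻¹ * (n • v) = n • v * v⁻¹ * (n • v * v⁻¹ * v) := by rw [← h2]
    rw [h3, ← mul_assoc, hA.sq, one_mul]
  have h1 := hA.core K hKn hK2
  have h2 : h ∈ K := by
    refine ⟨fun v => ?_, hh.2⟩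
    rw [← N.ker, nat_br, sub_eq_zero]
    funext i
    rw [hh.1, ap_one]
  rwa [h1, mem_bot] at h2

omit [Group X] [Group V] [MulDistribMulAction X V] in
theorem mat_conj (B : Matrix.SpecialLinearGroup (Fin 2) F) (hB : ent B 1 0 = 0) :
    B * up 1 * B⁻¹ = up (ent B 0 0 ^ 2) := by
  have hdet := det_eq B
  rw [hB, mul_zero, sub_zero] at hdet
  rw [mul_inv_eq_iff_eq_mul]
  apply ext_ent
  · rw [ent_mul, ent_mul, up_00, up_10, up_00, up_01, hB]; ring
  · rw [ent_mul, ent_mul, up_01, up_11, up_00, up_01]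
    linear_combination (-(ent B 0 0)) * hdet
  · rw [ent_mul, ent_mul, up_00, up_10, up_10, up_11, hB]; ring
  · rw [ent_mul, ent_mul, up_01, up_11, up_10, up_11, hB]; ring

omit [Group X] [Group V] [MulDistribMulAction X V] in
theorem mat_tri (B B' : Matrix.SpecialLinearGroup (Fin 2) F) (hB : ent B 1 0 ≠ 0) (hB' : ent B' 1 0 ≠ 0) :
    ent (B'⁻¹ * up (ent B' 0 0 / ent B' 1 0 - ent B 0 0 / ent B 1 0) * B) 1 0 = 0 := by
  rw [ent_mul, ent_mul, ent_mul, ent_inv B', mk_10, mk_11, up_00, up_10, up_01, up_11]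
  field_simp
  ring

/-- **`A` is transitive on the `ν^x ≠ ν`** -/
theorem nat_trans (hA : Abs X V T M) (h : Rt (T : Subgroup X) A ν) (ho : AOff V A)
    (N : AbsNat F (T : Subgroup X) V k) (hk : 0 < k) {x x' : X} (hx : ∃ v ∈ ν, x • v ∉ ν)
    (hx' : ∃ v ∈ ν, x' • v ∉ ν) : ∃ a ∈ A, ∀ v ∈ ν, (x'⁻¹ * a * x) • v ∈ ν := by
  classical
  obtain ⟨w, hw, hw0⟩ := nat_exists h N hk
  obtain ⟨a, ha, ha1⟩ := h.ne
  obtain ⟨I, hI1, hI2⟩ := N.off A h.AT ho
  obtain ⟨b, hbI, hb⟩ := hI1 a ha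
  -- the block
  obtain ⟨i, hi⟩ : ∃ i, b i ≠ 0 := by
    by_contra hcon
    push Not at hcon
    obtain ⟨v, rfl⟩ := h.onto a ha ha1 w hw
    apply hw0
    rw [nat_br, sub_eq_zero]
    funext j
    rw [hb.1]
    change ap (up (b j)) _ = _
    rw [hcon j, up_zero, ap_one]
  have hiI : i ∈ I := by
    by_contra hcon
    exact hi (hbI i hcon)
  -- the root group
  have hroot : ∀ c : F, ∃ a ∈ A, AActs N.e a fun j => up ((Pi.single i c : Fin k → F) j) := fun c =>
    by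
    obtain ⟨a, ha, h1⟩ := hI2 (Pi.single i c : Fin k → F) fun j hj => Pi.single_eq_of_ne (fun h1 => hj (by rw [h1]; exact hiI)) _
    exact ⟨a, ha, h1⟩
  obtain ⟨a1, ha1A, ha1act⟩ := hroot 1
  have hai : ∀ v : V, N.e (a1 • v) i = ap (up 1) (N.e v i) := by
    intro v
    have h1 := ha1act.1 v i
    dsimp only at h1
    rwa [Pi.single_eq_same] at h1
  have haj : ∀ v : V, ∀ j, j ≠ i → N.e (a1 • v) j = N.e v j := by
    intro v j hj
    have h1 := ha1act.1 v j
    dsimp only at h1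
    rwa [Pi.single_eq_of_ne hj, up_zero, ap_one] at h1
  have ha1ne : a1 ≠ 1 := by
    intro h0
    obtain ⟨v, hv⟩ := N.surj fun _ => ![0, 1]
    have h1 := congrFun (hai v) 0
    rw [h0, one_smul, hv, ap_zero', up_00, up_01] at h1
    simp at h1
  have hν : ∀ w ∈ ν, (∀ j, j ≠ i → N.e w j = 0) ∧ N.e w i 1 = 0 := by
    intro w hw
    obtain ⟨v, rfl⟩ := h.onto a1 ha1A ha1ne w hw
    rw [nat_br]
    constructor
    · intro j hj
      rw [Pi.sub_apply, haj v j hj, sub_self]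
    · rw [Pi.sub_apply, Pi.sub_apply, hai, ap_one', up_10, up_11, zero_mul, zero_add, one_mul, sub_self]
  have hwi : N.e w i ≠ 0 := by
    intro h1
    apply hw0
    funext j
    by_cases hj : j = i
    · rw [hj, h1]; rfl
    · rw [(hν w hw).1 j hj]; rfl
  -- one block
  have hone : ∀ j, j = i := by
    intro j
    obtain ⟨t, ht, h1⟩ := N.trans i j
    by_contra hj
    have h2 := (h1 w).1 (by rw [h.fix t ht w hw]; exact (hν w hw).1 j hj)
    exact hwi h2
  -- upper triangular elements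
  have tri : ∀ (g : X) (B : Fin k → Matrix.SpecialLinearGroup (Fin 2) F), AActs N.e g B → ent (B i) 1 0 = 0 →
      ∀ v ∈ ν, g • v ∈ ν := by
    intro g B hg hB v hv
    obtain ⟨v', rfl⟩ := h.onto a1 ha1A ha1ne v hv
    obtain ⟨a2, ha2A, ha2⟩ := hroot (ent (B i) 0 0 ^ 2)
    have h1 : g * a1 * g⁻¹ * a2⁻¹ = 1 := by
      refine nat_unique hA N ?_
      have h2 := aacts_mul (aacts_mul (aacts_mul hg ha1act) (aacts_inv hg)) (aacts_inv ha2)
      have e : (fun j => B j * up ((Pi.single i 1 : Fin k → F) j) * (B j)⁻¹ *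
          (up ((Pi.single i (ent (B i) 0 0 ^ 2) : Fin k → F) j))⁻¹) =
          fun _ => (1 : Matrix.SpecialLinearGroup (Fin 2) F) := by
        funext j
        rw [hone j, Pi.single_eq_same, Pi.single_eq_same, mul_inv_eq_one, mat_conj _ hB]
      rw [e] at h2
      exact h2
    have h2 : g * a1 * g⁻¹ ∈ A := by
      rw [mul_inv_eq_one.1 h1]; exact ha2A
    have e : g • (a1 • v' * v'⁻¹) = (g * a1 * g⁻¹) • (g • v') * (g • v')⁻¹ := by
      rw [smul_mul', smul_inv', smul_smul, smul_smul]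
      congr 2
      group
    rw [e]
    exact h.le _ h2 _
  -- `X = {SL₂(F)-elements} T`
  let X1 : Subgroup X :=
    { carrier := {g | ∃ B, AActs N.e g B}
      one_mem' := ⟨fun _ => 1, fun v i => by rw [one_smul, ap_one], fun d _ => one_smul _ d⟩
      mul_mem' := by
        rintro g g' ⟨B, hB⟩ ⟨B', hB'⟩
        exact ⟨_, aacts_mul hB hB'⟩
      inv_mem' := by
        rintro g ⟨B, hB⟩
        exact ⟨_, aacts_inv hB⟩ }
  have hX1n : X1.Normal := by
    refine ⟨?_⟩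
    rintro n ⟨B, hB⟩ g
    obtain ⟨B', hB'⟩ := N.norm g n B hB.1
    refine ⟨B', hB', fun d hd => ?_⟩
    rw [mul_smul, mul_smul, hB.2 _ (odd_smul hd g⁻¹), smul_inv_smul]
  have htop : X1 ⊔ (T : Subgroup X) = ⊤ :=
    N.gen _ le_sup_right fun g B hg => le_sup_left (a := X1) ⟨B, hg⟩
  have hdec : ∀ g : X, ∃ g1 B, AActs N.e g1 B ∧ ∃ t ∈ T, g1 * t = g := by
    intro g
    have h1 : g ∈ X1 ⊔ (T : Subgroup X) := by rw [htop]; trivial
    obtain ⟨g1, ⟨B, hB⟩, t, ht, h2⟩ := mem_sup_of_normal_left.1 h1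
    exact ⟨g1, B, hB, t, ht, h2⟩
  obtain ⟨y, B, hB, t, ht, rfl⟩ := hdec x
  obtain ⟨y', B', hB', t', ht', rfl⟩ := hdec x'
  have hB0 : ent (B i) 1 0 ≠ 0 := by
    intro h1
    obtain ⟨v, hv, h2⟩ := hx
    apply h2
    rw [mul_smul, h.fix t ht v hv]
    exact tri y B hB h1 v hv
  have hB'0 : ent (B' i) 1 0 ≠ 0 := by
    intro h1
    obtain ⟨v, hv, h2⟩ := hx'
    apply h2
    rw [mul_smul, h.fix t' ht' v hv]
    exact tri y' B' hB' h1 v hv
  obtain ⟨a2, ha2, ha2act⟩ := hroot (ent (B' i) 0 0 / ent (B' i) 1 0 - ent (B i) 0 0 / ent (B i) 1 0)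
  refine ⟨a2, ha2, fun v hv => ?_⟩
  have e : ((y' * t')⁻¹ * a2 * (y * t)) • v = t'⁻¹ • (y'⁻¹ * a2 * y) • t • v := by
    rw [smul_smul, smul_smul]; congr 1; group
  rw [e, h.fix t ht v hv]
  have h1 : (y'⁻¹ * a2 * y) • v ∈ ν := by
    refine tri _ _ (aacts_mul (aacts_mul (aacts_inv hB') ha2act) hB) ?_ v hv
    change ent ((B' i)⁻¹ * up ((Pi.single i _ : Fin k → F) i) * B i) 1 0 = 0
    rw [Pi.single_eq_same]
    exact mat_tri _ _ hB0 hB'0
  rw [h.fix _ (inv_mem ht') _ h1]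
  exact h1

end nat

/-- **(10)** `A` is transitive on the `ν^x ≠ ν`. -/
theorem trans (hFF : AStmt.{u}) [Finite X] [Finite V] {T : Sylow 2 X} {M A : Subgroup X} {ν : Subgroup V}
    (hA : Abs X V T M) (h : Rt (T : Subgroup X) A ν) (ho : AOff V A) {x x' : X} (hx : ∃ v ∈ ν, x • v ∉ ν)
    (hx' : ∃ v ∈ ν, x' • v ∉ ν) : ∃ a ∈ A, ∀ v ∈ ν, (x'⁻¹ * a * x) • v ∈ ν := by
  obtain ⟨-, ⟨F, _, _, _, k, hk, ⟨N⟩⟩ | ⟨k, m, hk, hm, ⟨N⟩⟩⟩ := hFF X V T M hA ⟨A, ho⟩
  · exact nat_trans hA h ho N hk hx hx'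
  · exact (not_sym hA h ho N hk hm).elim

end Cfsg.Agent.Omega.NO3b.Exit.TenFF
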